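import Cfsg.Agent.H24.PermModule
import Cfsg.Agent.H87.AlgBlock

/-!
A direct summand of minimal dimension of a permutation module of a `p`-group is a transitive
permutation module; application to central idempotents of group algebras.
-/

set_option autoImplicit false

open MulAction Matrix
open scoped MonoidAlgebra

namespace Cfsg.Agent.H32

section Perm
variable {k : Type*} [Field k] {Γ : Type*} [Group Γ]

/-- The permutation representation on functions. -/
def permRep (k : Type*) [Field k] (Γ : Type*) [Group Γ] (Y : Type*) [MulAction Γ Y] :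
    Representation k Γ (Y → k) where
  toFun γ := LinearMap.funLeft k k fun y => γ⁻¹ • y
  map_one' := by ext; simp [LinearMap.funLeft_apply]
  map_mul' a b := by ext; simp [LinearMap.funLeft_apply, mul_smul]

theorem permRep_apply {Y : Type*} [MulAction Γ Y] (γ : Γ) (c : Y → k) (y : Y) :
    permRep k Γ Y γ c y = c (γ⁻¹ • y) := rfl

theorem permRep_vecMul {Y X : Type*} [MulAction Γ Y] [MulAction Γ X] [Fintype Y]
    {N : Matrix Y X k} (h : ∀ (γ : Γ) y x, N (γ • y) (γ • x) = N y x) (γ : Γ) (c : Y → k) :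
    permRep k Γ Y γ c ᵥ* N = permRep k Γ X γ (c ᵥ* N) := by
  ext x
  simp only [permRep_apply, vecMul, dotProduct]
  rw [← Equiv.sum_comp (MulAction.toPerm γ)]
  refine Finset.sum_congr rfl fun y _ => ?_
  rw [MulAction.toPerm_apply, inv_smul_smul, ← h γ y, smul_inv_smul]

variable {p : ℕ} [Fact p.Prime] [CharP k p]

theorem exists_fixed_of_vecMul_ne_zero {Y X : Type*} [MulAction Γ Y] [MulAction Γ X] [Fintype Y]
    {N : Matrix Y X k} (h : ∀ (γ : Γ) y x, N (γ • y) (γ • x) = N y x) {R : Subgroup Γ}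
    (hR : IsPGroup p R) {c : Y → k} (hc : ∀ γ ∈ R, ∀ y, c (γ • y) = c y) {x : X}
    (hx : R ≤ stabilizer Γ x) (h0 : (c ᵥ* N) x ≠ 0) : ∃ y, R ≤ stabilizer Γ y ∧ N y x ≠ 0 := by
  classical
  by_contra H
  push Not at H
  apply h0
  simp only [vecMul, dotProduct]
  rw [← Finset.sum_filter_add_sum_filter_not _ fun y => R ≤ stabilizer Γ y,
    Finset.sum_eq_zero fun y hy => by rw [H y (Finset.mem_filter.1 hy).2, mul_zero], zero_add]
  refine H87.sum_eq_zero_of_no_fixed hR (fun γ (y : Y) => γ • y) (one_smul Γ) mul_smul _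
    (fun γ hγ y hy => ?_) (fun y hy => ?_) _ fun γ hγ y _ => ?_
  · simp only [Finset.mem_filter, Finset.mem_univ, true_and] at hy ⊢
    refine fun h1 => hy fun g hg => ?_
    have := h1 (R.mul_mem (R.mul_mem hγ hg) (R.inv_mem hγ))
    simpa [mul_smul] using this
  · simpa [SetLike.le_def] using hy
  · rw [hc γ hγ, ← h γ y x, show γ • x = x from hx hγ]

/-- An invariant idempotent matrix of minimal rank comes from a single orbit. -/
theorem exists_orbit_of_rank_le [Finite Γ] (hΓ : IsPGroup p Γ) {X : Type*} [MulAction Γ X]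
    [Fintype X] {N : Matrix X X k} (hN : N * N = N) (h0 : N ≠ 0)
    (h : ∀ (γ : Γ) y x, N (γ • y) (γ • x) = N y x) {m : ℕ}
    (hm : ∀ x y, N x y ≠ 0 → Nat.card (stabilizer Γ x ⊓ stabilizer Γ y : Subgroup Γ) ≤ m)
    (hr : N.rank * m ≤ Nat.card Γ) : ∃ o : X, Nat.card (stabilizer Γ o) ≤ m ∧
      ∀ x y, N x y ≠ 0 → ∃ γ : Γ, stabilizer Γ x ⊓ stabilizer Γ y ≤ stabilizer Γ (γ • o) := by
  classical
  obtain ⟨_, ⟨a', rfl⟩, ha0, ha⟩ := H24.exists_fixed_vector hΓ (permRep k Γ X)
    (LinearMap.range N.vecMulLinear) (by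
      rintro γ _ ⟨c, rfl⟩
      exact ⟨_, permRep_vecMul h γ c⟩) fun h1 => h0 (by
      ext x y
      simpa using congrFun (congrArg (· (Pi.single x 1)) (LinearMap.range_eq_bot.1 h1)) y)
  set a := N.vecMulLinear a' with ha'
  have h1 : a ᵥ* N = a := by simp [ha', hN]
  have h2 : ∀ (γ : Γ) y, a (γ • y) = a y := fun γ y => by
    simpa [permRep_apply] using congrFun (ha γ⁻¹) y
  obtain ⟨z, hz⟩ := Function.ne_iff.1 ha0
  obtain ⟨o, ho, hoz⟩ : ∃ o, a o ≠ 0 ∧ ∑ y : orbit Γ o, N y z ≠ 0 := by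
    rw [← h1] at hz
    simp only [vecMul, dotProduct] at hz
    rw [← Finset.sum_fiberwise Finset.univ (Quotient.mk (orbitRel Γ X))] at hz
    obtain ⟨q, -, hq⟩ := Finset.exists_ne_zero_of_sum_ne_zero hz
    obtain ⟨o, rfl⟩ := q.exists_rep
    rw [Finset.sum_subtype (p := (· ∈ orbit Γ o)) (F := inferInstance) _ (by
      simp [Quotient.eq, orbitRel_apply])] at hq
    have h3 : ∑ y : orbit Γ o, a y * N y z = a o * ∑ y : orbit Γ o, N y z := by
      rw [Finset.mul_sum]
      refine Finset.sum_congr rfl ?_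
      rintro ⟨_, γ, rfl⟩ _
      simp [h2]
    have h4 := h3 ▸ hq
    exact ⟨o, left_ne_zero_of_mul h4, right_ne_zero_of_mul h4⟩
  have h3 : Nat.card (stabilizer Γ o) ≤ m := by
    obtain ⟨y, hy, hy0⟩ := exists_fixed_of_vecMul_ne_zero h (hΓ.to_subgroup (stabilizer Γ o))
      (fun γ _ => h2 γ) le_rfl (h1.symm ▸ ho)
    simpa [inf_eq_right.2 hy] using hm y o hy0
  refine ⟨o, h3, fun x y hxy => ?_⟩
  set N' : Matrix (orbit Γ o) X k := N.submatrix Subtype.val id with hN'
  have h' : ∀ (γ : Γ) y x, N' (γ • y) (γ • x) = N' y x := fun γ y x => h γ y x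
  have hinj : Function.Injective N'.vecMulLinear := by
    rw [← LinearMap.ker_eq_bot]
    by_contra H
    obtain ⟨c, hc, hc0, hc1⟩ := H24.exists_fixed_vector hΓ (permRep k Γ (orbit Γ o)) _ (fun γ c hc => by
      rw [LinearMap.mem_ker, vecMulLinear_apply] at hc ⊢
      rw [permRep_vecMul h', hc, map_zero]) H
    have h4 : ∀ w, c w = c ⟨o, mem_orbit_self o⟩ := by
      rintro ⟨_, γ, rfl⟩
      exact congrFun (hc1 γ⁻¹) ⟨o, mem_orbit_self o⟩ ▸ by simp [permRep_apply]; rfl
    have h5 := congrFun (LinearMap.mem_ker.1 hc) z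
    simp only [vecMulLinear_apply, vecMul, dotProduct, h4, ← Finset.mul_sum, Pi.zero_apply,
      mul_eq_zero] at h5
    exact h5.elim (fun h5 => hc0 (funext fun w => (h4 w).trans h5)) hoz
  have h4 : LinearMap.range N'.vecMulLinear = LinearMap.range N.vecMulLinear := by
    refine Submodule.eq_of_le_of_finrank_le ?_ ?_
    · rw [range_vecMulLinear, range_vecMulLinear]
      exact Submodule.span_mono (by rintro _ ⟨w, rfl⟩; exact ⟨w, rfl⟩)
    · rw [LinearMap.finrank_range_of_inj hinj, Module.finrank_fintype_fun_eq_card,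
        range_vecMulLinear, ← rank_eq_finrank_span_row, ← Nat.card_eq_fintype_card,
        Nat.card_coe_set_eq, ← index_stabilizer]
      rw [← (stabilizer Γ o).index_mul_card] at hr
      exact Nat.le_of_mul_le_mul_right ((Nat.mul_le_mul_left _ h3).trans hr) Nat.card_pos
  obtain ⟨c, hc⟩ := h4.ge ⟨Pi.single x 1, rfl⟩
  simp only [vecMulLinear_apply, single_one_vecMul] at hc
  obtain ⟨⟨_, γ, rfl⟩, hw, -⟩ := exists_fixed_of_vecMul_ne_zero h'
    (hΓ.to_subgroup (stabilizer Γ x ⊓ stabilizer Γ y)) (c := c) (fun γ hγ w => by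
      have h5 : permRep k Γ _ γ⁻¹ c = c := hinj (by
        simp only [vecMulLinear_apply, permRep_vecMul h', hc]
        ext v
        rw [permRep_apply, inv_inv, row_apply, row_apply, ← h γ x v, show γ • x = x from hγ.1])
      simpa [permRep_apply] using congrFun h5 w) inf_le_right (hc ▸ hxy)
  exact ⟨γ, fun g hg => congrArg Subtype.val (hw hg)⟩

end Perm

section Grp
open H87
variable {k : Type*} [Field k] {G : Type*} [Group G] [Finite G] {p : ℕ} [Fact p.Prime] [CharP k p]

/-- The two-sided action of `S × S` on `G`. -/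
@[reducible] def biAct (S : Subgroup G) : MulAction (S × S) G where
  smul γ g := γ.1 * g * (γ.2 : G)⁻¹
  one_smul g := by change (1 : G) * g * (1 : G)⁻¹ = g; simp
  mul_smul a b g := by
    change (a.1 * b.1 : G) * g * (a.2 * b.2 : G)⁻¹ = a.1 * (b.1 * g * (b.2 : G)⁻¹) * (a.2 : G)⁻¹
    group

theorem rank_coeff [Fintype G] (b : k[G]) : (Matrix.of fun g h : G => b.coeff (g⁻¹ * h)).rank =
    Module.finrank k (LinearMap.range (LinearMap.mulRight k b)) := by
  classical
  have h : (Matrix.of fun g h : G => b.coeff (g⁻¹ * h))ᵀ = LinearMap.toMatrix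
      (MonoidAlgebra.basis G k) (MonoidAlgebra.basis G k) (LinearMap.mulRight k b) := by
    ext g h
    simp [LinearMap.toMatrix_apply, MonoidAlgebra.basis]
  rw [← rank_transpose, rank_eq_finrank_range_toLin _ (MonoidAlgebra.basis G k)
    (MonoidAlgebra.basis G k), h, toLin_toMatrix]

/-- If the ideal of a central idempotent has minimal dimension, then a Sylow subgroup controls the
automizers of the subgroups with nonzero Brauer image. -/
theorem control_of_finrank_le {S D : Subgroup G} (hS : IsPGroup p S) {b : k[G]} (hb : Blk ⊤ ⊤ b)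
    (hD : IsDef p ⊤ b D) (hDS : D ≤ S)
    (hr : Module.finrank k (LinearMap.range (LinearMap.mulRight k b)) * Nat.card D ≤
      Nat.card S * Nat.card S) {Q : Subgroup G} (hQ : Q ≤ S) (hQb : Br Q b ≠ 0) {x : G}
    (hx : x ∈ No Q) : ∃ w ∈ S, ∀ q ∈ Q, x * q * x⁻¹ = w * q * w⁻¹ := by
  classical
  have := Fintype.ofFinite G
  let _ := biAct S
  have hs : ∀ (γ : S × S) (g : G), γ • g = γ.1 * g * (γ.2 : G)⁻¹ := fun _ _ => rfl
  have hΓ : IsPGroup p (S × S) := fun γ => by
    obtain ⟨m, hm⟩ := hS γ.1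
    obtain ⟨n, hn⟩ := hS γ.2
    exact ⟨m + n, Prod.ext (by simp [pow_add, pow_mul, hm]) (by simp [pow_add, pow_mul', hn])⟩
  obtain ⟨o, ho, h⟩ := exists_orbit_of_rank_le hΓ (N := Matrix.of fun g h : G => b.coeff (g⁻¹ * h))
    (m := Nat.card D) (by
      ext g h
      rw [Matrix.mul_apply, of_apply, ← hb.idem.eq, coeff_mul_eq_sum,
        ← Equiv.sum_comp (Equiv.mulLeft g)]
      simp [hb.idem.eq, mul_assoc])
    (fun h => hb.ne_zero (ext_coeff fun g => by simpa using congrFun (congrFun h 1) g))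
    (fun γ g h => by
      simp only [hs, of_apply]
      rw [← hb.inv.coeff_conj (Subgroup.mem_top (γ.2 : G)) (g⁻¹ * h)]
      congr 1; group)
    (fun g h hgh => by
      set R := stabilizer (S × S) g ⊓ stabilizer (S × S) h
      let f : S × S →* G := S.subtype.comp (MonoidHom.snd S S)
      have h1 : Nat.card R = Nat.card (R.map f) := by
        refine Nat.card_congr (Equiv.ofBijective (f.subgroupMap R) ⟨?_, f.subgroupMap_surjective R⟩)
        rw [injective_iff_map_eq_one]
        rintro ⟨γ, hγ⟩ h2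
        have h3 : (γ.2 : G) = 1 := congrArg Subtype.val h2
        have h4 : γ • g = g := hγ.1
        rw [hs, h3] at h4
        exact Subtype.ext (Prod.ext (by simpa using h4) (by simpa using h3))
      rw [h1]
      refine hD.card_le le_rfl hb le_top ((hΓ.to_subgroup R).map f) (Br_ne_zero_iff.2 ⟨_, ?_, hgh⟩)
      rw [mem_Ce]
      rintro _ ⟨γ, hγ, rfl⟩
      have h3 : γ • g = g := hγ.1
      have h4 : γ • h = h := hγ.2
      change (γ.2 : G) * _ = _ * γ.2
      conv_rhs => rw [← h3, ← h4, hs, hs]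
      group)
    (by rwa [rank_coeff, Nat.card_prod])
  obtain ⟨c, hc, hc0⟩ := Br_ne_zero_iff.1 hD.ne
  obtain ⟨γ, hγ⟩ := h 1 c (by simpa using hc0)
  obtain ⟨d, hd, hd0⟩ := Br_ne_zero_iff.1 hQb
  obtain ⟨δ, hδ⟩ := h x (x * d) (by simpa using hd0)
  have h1 : stabilizer (S × S) (γ • o) ≤ stabilizer (S × S) (1 : G) := by
    let f : D →* S × S := (Subgroup.inclusion hDS).prod (Subgroup.inclusion hDS)
    have h2 : f.range ≤ stabilizer (S × S) (1 : G) ⊓ stabilizer (S × S) c := by
      rintro _ ⟨u, rfl⟩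
      simp [hs, f, mem_Ce.1 hc u u.2]
    have h3 : Nat.card f.range = Nat.card D := (Nat.card_congr (MonoidHom.ofInjective
      fun a b h => Subgroup.inclusion_injective hDS (congrArg Prod.fst h)).toEquiv).symm
    rw [← Subgroup.eq_of_le_of_card_ge (h2.trans hγ) (by
      rw [← Nat.card_congr (stabilizerEquivStabilizer (g := γ) (a := o) rfl).toEquiv, h3]
      exact ho)]
    exact h2.trans inf_le_left
  refine ⟨(δ * γ⁻¹).1 * (δ * γ⁻¹).2⁻¹, by simp [mul_mem], fun q hq => ?_⟩
  have h2 : δ • o = (δ * γ⁻¹) • γ • o := by rw [mul_smul, inv_smul_smul]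
  generalize δ * γ⁻¹ = ε at *
  have h3 := hδ (x := (⟨x * q * x⁻¹, hQ (conj_mem_of_No hx hq)⟩, ⟨q, hQ hq⟩))
    ⟨by simp [hs], by simp [hs, mul_assoc, mem_Ce.1 hd q hq]⟩
  rw [mem_stabilizer_iff, h2, ← mul_smul, ← inv_smul_eq_iff, ← mul_smul] at h3
  have h4 : _ • (1 : G) = 1 := h1 h3
  simp only [hs, mul_one, mul_inv_eq_one] at h4
  push_cast at h4 ⊢
  rw [show x * q * x⁻¹ = ε.1 * ((ε.1 : G)⁻¹ * (x * q * x⁻¹) * ε.1) * (ε.1 : G)⁻¹ by group]
  simp only [Prod.fst_mul, Prod.snd_mul, Prod.fst_inv, Prod.snd_inv, Subgroup.coe_mul,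
    Subgroup.coe_inv, ← mul_assoc] at h4
  simp only [← mul_assoc, h4]
  group

end Grp

end Cfsg.Agent.H32
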